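import Cfsg.Agent.Lib.Helper60.U64.Defs

/-!
# Project U64 (S6001): package [NCRIT]
-/

set_option autoImplicit false

namespace Cfsg.Agent.Lib.Helper10.U64

open Cfsg.Agent.Lib.Helper60.U64

universe u

/-- **[NCRIT]** an element conjugating the five generators of `R0 i` into `R0 i` normalizes it. -/
theorem pkgNCrit : PkgNCrit.{u} := by
  intro F _ _ i y hy
  classical
  rw [Subgroup.mem_normalizer_iff_map_conj_eq]
  have hle : (R0 i).map (MulAut.conj y).toMonoidHom ≤ R0 i := by
    rw [Subgroup.map_le_iff_le_comap]
    show Subgroup.closure _ ≤ _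
    rw [Subgroup.closure_le]
    intro s hs
    exact hy s hs
  have hfin : Finite (GL (Fin 4) F) := inferInstance
  exact Subgroup.eq_of_le_of_card_ge hle
    (le_of_eq (Subgroup.card_map_of_injective (MulAut.conj y).injective).symm)

end Cfsg.Agent.Lib.Helper10.U64
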