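import Cfsg.Agent.Lib.Helper60.U64.Defs
import Cfsg.Agent.Lib.Helper10.U64.NCrit

/-!
# Project U64 (S6001): tools for the normalizer packages [ND], [NU0], [NU2], [NY5]
-/

set_option autoImplicit false

namespace Cfsg.Agent.Lib.Helper10.U64

open Cfsg.Agent.Lib.Helper60.U64

universe u

variable {F : Type u} [Field F]

/-- an involutory matrix as an element of `GL`. -/
def invo (M : M4 F) (h : M * M = 1) : GL (Fin 4) F := ⟨M, M, h, h⟩

theorem mA1_sq : mA1 F * mA1 F = 1 := by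
  ext r c; fin_cases r <;> fin_cases c <;> simp [Matrix.mul_apply, Fin.sum_univ_four, mA1]

theorem mA2_sq : mA2 F * mA2 F = 1 := by
  ext r c; fin_cases r <;> fin_cases c <;> simp [Matrix.mul_apply, Fin.sum_univ_four, mA2]

theorem mB1_sq : mB1 F * mB1 F = 1 := by
  ext r c; fin_cases r <;> fin_cases c <;> simp [Matrix.mul_apply, Fin.sum_univ_four, mB1]

theorem mB2_sq : mB2 F * mB2 F = 1 := by
  ext r c; fin_cases r <;> fin_cases c <;> simp [Matrix.mul_apply, Fin.sum_univ_four, mB2]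

/-- `Z ⊗ 1` in `GL`. -/
def gA1 : GL (Fin 4) F := invo (mA1 F) mA1_sq
/-- `1 ⊗ Z` in `GL`. -/
def gA2 : GL (Fin 4) F := invo (mA2 F) mA2_sq
/-- `X ⊗ 1` in `GL`. -/
def gB1 : GL (Fin 4) F := invo (mB1 F) mB1_sq
/-- `1 ⊗ X` in `GL`. -/
def gB2 : GL (Fin 4) F := invo (mB2 F) mB2_sq

/-- the scalar `i` in `GL` (inverse `-i`). -/
def gI (i : F) (hi : i * i = -1) : GL (Fin 4) F :=
  ⟨i • (1 : M4 F), (-i) • (1 : M4 F), by
    rw [Matrix.smul_mul, Matrix.mul_smul, Matrix.one_mul, smul_smul, mul_neg, hi, neg_neg, one_smul],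
   by rw [Matrix.smul_mul, Matrix.mul_smul, Matrix.one_mul, smul_smul, neg_mul, hi, neg_neg, one_smul]⟩

theorem gA1_val : ((gA1 : GL (Fin 4) F) : M4 F) = mA1 F := rfl
theorem gA2_val : ((gA2 : GL (Fin 4) F) : M4 F) = mA2 F := rfl
theorem gB1_val : ((gB1 : GL (Fin 4) F) : M4 F) = mB1 F := rfl
theorem gB2_val : ((gB2 : GL (Fin 4) F) : M4 F) = mB2 F := rfl
theorem gI_val (i : F) (hi : i * i = -1) : ((gI i hi : GL (Fin 4) F) : M4 F) = i • (1 : M4 F) := rfl
theorem gI_inv_val (i : F) (hi : i * i = -1) :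
    (((gI i hi)⁻¹ : GL (Fin 4) F) : M4 F) = (-i) • (1 : M4 F) := rfl

theorem gA1_mem (i : F) : (gA1 : GL (Fin 4) F) ∈ R0 i :=
  Subgroup.subset_closure (Or.inr (Or.inl rfl))
theorem gA2_mem (i : F) : (gA2 : GL (Fin 4) F) ∈ R0 i :=
  Subgroup.subset_closure (Or.inr (Or.inr (Or.inl rfl)))
theorem gB1_mem (i : F) : (gB1 : GL (Fin 4) F) ∈ R0 i :=
  Subgroup.subset_closure (Or.inr (Or.inr (Or.inr (Or.inl rfl))))
theorem gB2_mem (i : F) : (gB2 : GL (Fin 4) F) ∈ R0 i :=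
  Subgroup.subset_closure (Or.inr (Or.inr (Or.inr (Or.inr rfl))))
theorem gI_mem (i : F) (hi : i * i = -1) : gI i hi ∈ R0 i :=
  Subgroup.subset_closure (Or.inl rfl)

/-- The normalizer criterion in matrix form: `y` normalizes `R0 i` as soon as
`y * S = W_S * y` with `W_S ∈ R0 i` for the four non-scalar generators `S`. -/
theorem norm_of_rel [Finite F] (i : F) (y W1 W2 W3 W4 : GL (Fin 4) F)
    (hW1 : W1 ∈ R0 i) (hW2 : W2 ∈ R0 i) (hW3 : W3 ∈ R0 i) (hW4 : W4 ∈ R0 i)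
    (h1 : (y : M4 F) * mA1 F = (W1 : M4 F) * (y : M4 F))
    (h2 : (y : M4 F) * mA2 F = (W2 : M4 F) * (y : M4 F))
    (h3 : (y : M4 F) * mB1 F = (W3 : M4 F) * (y : M4 F))
    (h4 : (y : M4 F) * mB2 F = (W4 : M4 F) * (y : M4 F)) :
    y ∈ Subgroup.normalizer ((R0 i : Subgroup (GL (Fin 4) F)) : Set (GL (Fin 4) F)) := by
  apply pkgNCrit F i y
  intro s hs
  rcases hs with h | h | h | h | h
  · have : y * s * y⁻¹ = s := by
      rw [mul_inv_eq_iff_eq_mul]
      apply Units.ext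
      rw [Units.val_mul, Units.val_mul, h]
      simp
    rw [this]
    exact Subgroup.subset_closure (Or.inl h)
  · have : y * s * y⁻¹ = W1 := by
      rw [mul_inv_eq_iff_eq_mul]
      apply Units.ext
      rw [Units.val_mul, Units.val_mul, h, h1]
    rw [this]; exact hW1
  · have : y * s * y⁻¹ = W2 := by
      rw [mul_inv_eq_iff_eq_mul]
      apply Units.ext
      rw [Units.val_mul, Units.val_mul, h, h2]
    rw [this]; exact hW2
  · have : y * s * y⁻¹ = W3 := by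
      rw [mul_inv_eq_iff_eq_mul]
      apply Units.ext
      rw [Units.val_mul, Units.val_mul, h, h3]
    rw [this]; exact hW3
  · have : y * s * y⁻¹ = W4 := by
      rw [mul_inv_eq_iff_eq_mul]
      apply Units.ext
      rw [Units.val_mul, Units.val_mul, h, h4]
    rw [this]; exact hW4

end Cfsg.Agent.Lib.Helper10.U64
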