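import Cfsg.Agent.Lib.Helper60.U64.Defs
import Cfsg.Agent.Lib.Helper10.U64.Norm

/-!
# Project U64 (S6001): package [NU2]
-/

set_option autoImplicit false
set_option linter.unusedSimpArgs false
set_option linter.unreachableTactic false
set_option linter.unusedTactic false

namespace Cfsg.Agent.Lib.Helper10.U64

open Cfsg.Agent.Lib.Helper60.U64

universe u

set_option maxHeartbeats 4000000 in
/-- **[NU2]** the explicit matrix `mU2 i` normalizes `R0 i`. -/
theorem pkgNU2 : PkgNU2.{u} := by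
  intro F _ _ i hi h2 y hy
  refine norm_of_rel i y ((gI i hi)⁻¹ * gA1 * gB1) ((gI i hi)⁻¹ * gA2 * gB2) (gA1) (gA2)
    (Subgroup.mul_mem _ (Subgroup.mul_mem _ (Subgroup.inv_mem _ (gI_mem i hi)) (gA1_mem i)) (gB1_mem i)) (Subgroup.mul_mem _ (Subgroup.mul_mem _ (Subgroup.inv_mem _ (gI_mem i hi)) (gA2_mem i)) (gB2_mem i))
    (gA1_mem i) (gA2_mem i) ?_ ?_ ?_ ?_
  all_goals
    simp only [Units.val_mul, Units.val_one, gA1_val, gA2_val, gB1_val, gB2_val, gI_val, gI_inv_val, hy]
    ext r c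
    fin_cases r <;> fin_cases c <;>
      simp [Matrix.mul_apply, Fin.sum_univ_four, mA1, mA2, mB1, mB2, mU2] <;> grind

end Cfsg.Agent.Lib.Helper10.U64
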